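import Cfsg.Agent.H6.Co3.DW.B0

set_option autoImplicit false
set_option maxRecDepth 100000
set_option Elab.async false

namespace Cfsg.H6.Co3.DW

theorem hv {G : Type*} [Group G] {ev : ℕ → G} {H : Subgroup G} (h : D.Hyp ev H) :
    ∀ c < 51, D.Valid ev H (D.cl c) :=
  Dce.all_valid h (range_join (allR_range k0 (by norm_num : 0 + 40 = 40)) (allR_range k1 (by norm_num : 40 + 11 = 51)))

theorem top : ⊤ ≤ gen P.ev (D.genW [0,1,2,3,4,5,6]) :=
  P.top.trans (gen_le_of_cyc P.hev P.hR (W := [[1], [3], [5], [7], [9], [11], [13], [1,1]]) (by decide +kernel))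

def E : List (ℕ × ℕ) := [(0, 1)]

theorem hT {G : Type*} [Group G] {ev : ℕ → G} {H : Subgroup G} {θ : P.Grp →* G}
    (M : D.Model ev P.ev θ P.φ P.img 630) (h : D.Hyp ev H) :
    ∀ i ∈ E.map Prod.fst, ∀ p, D.InU ev H θ (E.map Prod.fst) (evL ev (D.gw i) * θ p * ev D.T) :=
  (List.forall_mem_cons.mpr ⟨Dce.fin_sound M h (hv h) f0, (by simp)⟩)

theorem hE {G : Type*} [Group G] {ev : ℕ → G} {H : Subgroup G} {θ : P.Grp →* G}
    (M : D.Model ev P.ev θ P.φ P.img 630) (h : D.Hyp ev H) :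
    ∀ e ∈ E, Cover ((rcStab H (evL ev (D.gw e.1))).comap θ) ⊤ e.2 := by
  have := P.finite
  exact (List.forall_mem_cons.mpr ⟨Dce.cover_top M h (hv h) (Gs := [0,1,2,3,4,5,6]) (by decide +kernel) top, (by simp)⟩)

theorem model {G : Type*} [Group G] {ev : ℕ → G} {θ : P.Grp →* G}
    (hθ : ∀ l, 1 ≤ l → l < 32 → θ (P.ev l) = ev l) : D.Model ev P.ev θ P.φ P.img 630 :=
  ⟨hθ, P.hφ0, P.lt0, P.stab, by decide +kernel⟩


end Cfsg.H6.Co3.DW
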